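import Cfsg.Agent.H16.CosetEnum

/-!
Certificates of labelled coset actions: constants of lifted relators in a central kernel acting
freely are determined from closed traces.
-/

set_option autoImplicit false

namespace Cfsg.Agent.H10.HeMult

open Cfsg.Agent.H16

/-- A tree of lists with the sizes of left parts. -/
inductive Tree (α : Type) where
  | leaf (l : List α)
  | node (n : Nat) (a b : Tree α)

/-- lookup -/
def Tree.get {α : Type} (d : α) : Tree α → Nat → α
  | .leaf l, i => l.getD i d
  | .node n a b, i => if i < n then a.get d i else b.get d (i - n)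

/-- A labelled edge with its reason. -/
structure Step where
  /-- source -/
  a : Nat
  /-- letter -/
  g : Nat
  /-- target -/
  b : Nat
  /-- label as a form in the constants -/
  f : List (Nat × Int)
  /-- 0 tree edge, 1 free edge, 2 deduced edge -/
  kind : Nat
  /-- word -/
  r : Nat
  /-- start of the trace -/
  i : Nat
  /-- position in the word -/
  pos : Nat
  /-- the other edges of the trace -/
  refs : List Nat

/-- insert a term -/
def ins (k : Nat) (c : Int) : List (Nat × Int) → List (Nat × Int)
  | [] => if c = 0 then [] else [(k, c)]
  | (k', c') :: t =>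
    if k = k' then (if c + c' = 0 then t else (k', c + c') :: t)
    else if k < k' then (if c = 0 then (k', c') :: t else (k, c) :: (k', c') :: t)
    else (k', c') :: ins k c t

/-- normal form -/
def nrm (f : List (Nat × Int)) : List (Nat × Int) := f.foldr (fun p acc => ins p.1 p.2 acc) []

/-- scaled form -/
def scal (c : Int) (f : List (Nat × Int)) : List (Nat × Int) := f.map fun p => (p.1, c * p.2)

/-- The data of a certificate. -/
structure LabelData where
  /-- words -/
  words : List (List Nat)
  /-- words numbered below are relators -/
  nrel : Nat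
  /-- steps -/
  steps : Tree Step
  /-- number of steps -/
  nsteps : Nat
  /-- parent and letter of nodes -/
  defs : Tree (Nat × Nat)
  /-- closed traces -/
  closings : List (Nat × Nat × List Nat)
  /-- shifts -/
  shifts : List (List (Nat × Int))
  /-- combinations -/
  combos : List (List Int)

namespace LabelData

variable (D : LabelData)

/-- step `t` -/
def step (t : Nat) : Step := D.steps.get ⟨0, 0, 0, [], 0, 0, 0, 0, []⟩ t

/-- word `k` -/
def word (k : Nat) : List Nat := D.words.getD k []

/-- a word may be traced from a node -/
def startOK (k i : Nat) : Bool := decide (k < D.words.length) && (decide (k < D.nrel) || i == 0)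

/-- walk along earlier steps -/
def walk (bound : Nat) : Nat → List Nat → List Nat → Option (Nat × List (Nat × Int))
  | cur, [], [] => some (cur, [])
  | cur, g :: w, j :: js =>
    if j < bound ∧ (D.step j).a = cur ∧ (D.step j).g = g then
      (walk bound (D.step j).b w js).map fun p => (p.1, (D.step j).f ++ p.2)
    else none
  | _, _, _ => none

/-- a step is justified -/
def checkStep (t : Nat) : Bool :=
  let s := D.step t
  match s.kind with
  | 0 => s.f == [] && decide (s.a < s.b) && D.defs.get (0, 0) s.b == (s.a, s.g)
  | 1 => s.f == [(s.r, 1)]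
  | _ =>
    let w := D.word s.r
    D.startOK s.r s.i && decide (s.pos < w.length) && w.getD s.pos 0 == s.g &&
      match D.walk t s.i (w.take s.pos) (s.refs.take s.pos),
        D.walk t s.b (w.drop (s.pos + 1)) (s.refs.drop s.pos) with
      | some (e, f₁), some (e', f₂) =>
        e == s.a && e' == s.i && nrm (s.f ++ f₁ ++ f₂ ++ [(s.r, -1)]) == []
      | _, _ => false

/-- residual of a closed trace -/
def resid (q : Nat × Nat × List Nat) : List (Nat × Int) :=
  match D.walk D.nsteps q.2.1 (D.word q.1) q.2.2 with
  | some (e, f) => if e = q.2.1 ∧ D.startOK q.1 q.2.1 = true then nrm ((q.1, 1) :: scal (-1) f) else []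
  | none => []

/-- shift form of a letter -/
def shift (g : Nat) : List (Nat × Int) := D.shifts.getD g []

/-- residual forms -/
def residuals : List (List (Nat × Int)) := D.closings.map D.resid

/-- a relator constant is the shift of its word -/
def checkCombo (rs : List (List (Nat × Int))) (r : Nat) : Bool :=
  nrm ((((D.combos.getD r []).zip rs).flatMap fun p => scal p.1 p.2) ++ [(r, -1)] ++
    ((D.word r).flatMap D.shift)) == []

/-! ### soundness -/

section values

variable {A : Type*} [CommGroup A] (v : Nat → A)

/-- value of a form -/
def val : List (Nat × Int) → A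
  | [] => 1
  | p :: t => v p.1 ^ p.2 * val t

theorem val_append : ∀ f g : List (Nat × Int), val v (f ++ g) = val v f * val v g
  | [], g => by simp [val]
  | p :: t, g => by simp [val, val_append t g, mul_assoc]

theorem val_ins (k : Nat) (c : Int) : ∀ f, val v (ins k c f) = v k ^ c * val v f
  | [] => by
    unfold ins
    split <;> simp [val, *]
  | (k', c') :: t => by
    unfold ins
    split
    · subst k'
      split
      · rename_i h
        simp [val, ← mul_assoc, ← zpow_add, h]
      · simp [val, ← mul_assoc, ← zpow_add]
    · split
      · split <;> simp [val, *]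
      · simp only [val, val_ins k c t]
        exact mul_left_comm _ _ _

theorem val_nrm : ∀ f, val v (nrm f) = val v f
  | [] => rfl
  | p :: t => by
    show val v (ins p.1 p.2 (nrm t)) = _
    rw [val_ins, val_nrm t]
    rfl

theorem val_of_nrm {f : List (Nat × Int)} (h : nrm f = []) : val v f = 1 := by
  rw [← val_nrm, h]; rfl

theorem val_scal (c : Int) : ∀ f, val v (scal c f) = val v f ^ c
  | [] => by simp [scal, val]
  | p :: t => by
    show v p.1 ^ (c * p.2) * val v (scal c t) = _
    rw [val_scal c t]
    simp [val, mul_zpow, ← zpow_mul, mul_comm c]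

theorem val_flatMap {α : Type*} (F : α → List (Nat × Int)) :
    ∀ l : List α, val v (l.flatMap F) = (l.map fun a => val v (F a)).prod
  | [] => rfl
  | a :: l => by simp [val_append, val_flatMap F l]

end values

section sound

variable {E X A : Type*} [Group E] [MulAction E X] [CommGroup A] (ι : A →* E) (l : Nat → E)
  (v : Nat → A) (x₀ : X)

/-- node `b` -/
noncomputable def node (b : Nat) : X :=
  if h : (D.defs.get (0, 0) b).1 < b then l (D.defs.get (0, 0) b).2 • node (D.defs.get (0, 0) b).1
  else x₀
termination_by b

theorem node_zero : D.node l x₀ 0 = x₀ := by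
  rw [node, dif_neg (Nat.not_lt_zero _)]

/-- meaning of a step -/
def Holds (s : Step) : Prop :=
  l s.g • D.node l x₀ s.a = ι (val v s.f) • D.node l x₀ s.b

variable {ι l v x₀} (hc : ∀ (a : A) (e : E), ι a * e = e * ι a)

include hc in
theorem walk_sound {bound : Nat} (hs : ∀ j < bound, D.Holds ι l v x₀ (D.step j)) :
    ∀ (w js : List Nat) (cur e : Nat) (f : List (Nat × Int)),
      D.walk bound cur w js = some (e, f) →
        EnumData.ev l w • D.node l x₀ cur = ι (val v f) • D.node l x₀ e
  | [], [], cur, e, f, h => by
    rw [walk] at h
    injection h with h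
    injection h with h1 h2
    subst h1 h2
    simp [val, EnumData.ev]
  | g :: w, j :: js, cur, e, f, h => by
    rw [walk] at h
    split at h
    · rename_i hj
      obtain ⟨hj, rfl, rfl⟩ := hj
      obtain ⟨⟨e', f'⟩, h', he⟩ := Option.map_eq_some_iff.mp h
      injection he with he hf
      subst he hf
      have ih := walk_sound hs w js _ _ _ h'
      rw [EnumData.ev, mul_smul, show l (D.step j).g • D.node l x₀ (D.step j).a =
        ι (val v (D.step j).f) • D.node l x₀ (D.step j).b from hs j hj, ← mul_smul, ← hc, mul_smul,
        ih, val_append, map_mul, mul_smul]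
    · exact absurd h (by simp)
  | [], _ :: _, cur, e, f, h => by simp [walk] at h
  | _ :: _, [], cur, e, f, h => by simp [walk] at h

variable (hword : ∀ k i, D.startOK k i = true →
  EnumData.ev l (D.word k) • D.node l x₀ i = ι (v k) • D.node l x₀ i)
  (hfree : ∀ t, t < D.nsteps → (D.step t).kind = 1 →
    l (D.step t).g • D.node l x₀ (D.step t).a = ι (v (D.step t).r) • D.node l x₀ (D.step t).b)

include hc hword hfree in
theorem holds_all (hck : ∀ t < D.nsteps, D.checkStep t = true) :
    ∀ t < D.nsteps, D.Holds ι l v x₀ (D.step t) := by
  intro t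
  induction t using Nat.strong_induction_on with
  | _ t ih =>
    intro ht
    have hs : ∀ j < t, D.Holds ι l v x₀ (D.step j) := fun j hj => ih j hj (hj.trans ht)
    have h := hck t ht
    unfold checkStep at h
    unfold Holds
    revert h
    generalize hst : D.step t = s
    intro h
    match hk : s.kind, h with
    | 0, h =>
      simp only [Bool.and_eq_true, beq_iff_eq, decide_eq_true_eq, hk] at h
      obtain ⟨⟨hf, hab⟩, hd⟩ := h
      conv_rhs => rw [node, hd, dif_pos hab]
      simp [hf, val]
    | 1, h =>
      simp only [beq_iff_eq, hk] at h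
      have := hfree t ht (by rw [hst, hk])
      rw [hst] at this
      rw [h, this]
      simp [val]
    | k + 2, h =>
      simp only [Bool.and_eq_true, beq_iff_eq, decide_eq_true_eq, hk] at h
      obtain ⟨⟨⟨hok, hpos⟩, hg⟩, h⟩ := h
      revert h
      generalize hp : D.walk t s.i _ _ = p
      generalize hp' : D.walk t s.b _ _ = p'
      intro h
      rcases p with _ | ⟨e, f₁⟩
      · simp at h
      rcases p' with _ | ⟨e', f₂⟩
      · simp at h
      simp only [Bool.and_eq_true, beq_iff_eq] at h
      obtain ⟨⟨rfl, rfl⟩, hn⟩ := h
      have h1 := D.walk_sound hc hs _ _ _ _ _ hp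
      have h2 := D.walk_sound hc hs _ _ _ _ _ hp'
      have hsplit : D.word s.r =
          (D.word s.r).take s.pos ++ s.g :: (D.word s.r).drop (s.pos + 1) := by
        rw [← hg, List.getD_eq_getElem _ _ hpos, ← List.drop_eq_getElem_cons hpos,
          List.take_append_drop]
      have h3 := hword _ _ hok
      rw [hsplit, EnumData.ev_append, mul_smul, h1, ← mul_smul, ← hc, mul_smul, EnumData.ev,
        mul_smul] at h3
      set u := EnumData.ev l ((D.word s.r).drop (s.pos + 1))
      have hn' := val_of_nrm v hn
      rw [val_append, val_append, val_append] at hn'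
      simp only [val, mul_one, zpow_neg, zpow_one] at hn'
      have hv : v s.r = val v f₁ * (val v s.f * val v f₂) := by
        rw [← mul_inv_eq_one.mp hn', mul_comm (val v s.f), mul_assoc]
      rw [hv, map_mul, map_mul, mul_smul, mul_smul, ← h2, ← mul_smul (ι (val v s.f)) u, hc,
        mul_smul] at h3
      exact smul_left_cancel u (smul_left_cancel _ h3)

include hc hword hfree in
theorem exists_shift (hck : ∀ t < D.nsteps, D.checkStep t = true)
    (hfix : ∀ (a b : A) (i : Nat), ι a • D.node l x₀ i = ι b • D.node l x₀ i → a = b)
    (hco : ∀ r < D.nrel, D.checkCombo D.residuals r = true) :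
    ∃ t : Nat → A, ∀ r < D.nrel, v r = ((D.word r).map t).prod := by
  have hs := D.holds_all hc hword hfree hck
  have hres : ∀ f ∈ D.residuals, val v f = 1 := by
    intro f hf
    obtain ⟨q, -, rfl⟩ := List.mem_map.mp hf
    unfold resid
    split
    · rename_i e f hw
      split
      · rename_i hq
        obtain ⟨he, hok⟩ := hq
        subst he
        have h1 := D.walk_sound hc hs _ _ _ _ _ hw
        rw [hword _ _ hok] at h1
        rw [val_nrm]
        show v q.1 ^ (1 : Int) * val v (scal (-1) f) = 1
        rw [val_scal, zpow_one, zpow_neg, zpow_one, hfix _ _ _ h1, mul_inv_cancel]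
      · rfl
    · rfl
  refine ⟨fun g => val v (D.shift g), fun r hr => ?_⟩
  have h := hco r hr
  simp only [checkCombo, beq_iff_eq] at h
  have h' := val_of_nrm v h
  rw [val_append, val_append, val_flatMap, val_flatMap] at h'
  have h1 : (((D.combos.getD r []).zip D.residuals).map fun p => val v (scal p.1 p.2)).prod = 1 := by
    refine List.prod_eq_one fun x hx => ?_
    obtain ⟨⟨c, f⟩, hp, rfl⟩ := List.mem_map.mp hx
    rw [val_scal, hres f (List.of_mem_zip hp).2, one_zpow]
  rw [h1, one_mul] at h'
  simp only [val, mul_one, zpow_neg, zpow_one] at h'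
  exact inv_mul_eq_one.mp h'

end sound

end LabelData

end Cfsg.Agent.H10.HeMult
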