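import Cfsg.Agent.H10.HeMult.Data
import Cfsg.Agent.H16.HeSp
import Cfsg.Agent.H82.Sp.Mult
import Cfsg.Agent.H2.Perfect
import Cfsg.Agent.H2.Center

/-!
The Schur multiplier of the presented Held group is trivial.
-/

set_option autoImplicit false

namespace Cfsg.Agent.H10.HeMult

open Cfsg.Spor Cfsg.Agent.H16 EnumData CoxEnum
open scoped commutatorElement

/-- the certificate -/
def cert : LabelData := ⟨words, 32, steps, numSteps, defs, closings, shifts, combos⟩

theorem steps_ok : ∀ t < cert.nsteps, cert.checkStep t = true := by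
  have h : allFrom (fun t => cert.checkStep t) cert.nsteps 0 = true := by decide +kernel
  exact fun t ht => allFrom_spec h t (Nat.zero_le t) (by omega)

theorem combos_ok : ∀ r < cert.nrel, cert.checkCombo cert.residuals r = true := by
  have h : allFrom (fun r => cert.checkCombo cert.residuals r) cert.nrel 0 = true := by decide +kernel
  exact fun r hr => allFrom_spec h r (Nat.zero_le r) (by omega)

theorem commutator_sp : commutator (Matrix.symplecticGroup (Fin 2) F4) = ⊤ := by
  obtain ⟨a, h1, h2⟩ : ∃ a : F4, a ≠ 0 ∧ a * a ≠ 1 := by decide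
  exact H2.commutator_eq_top_of_scalar h1 h2

theorem mult_sub2 : Cfsg.HasCyclicSchurMultiplier HeSp.sub2 1 := by
  obtain ⟨e⟩ := HeSp.nonempty_equiv
  have hc : Subgroup.center (Matrix.symplecticGroup (Fin 2) F4) = ⊥ := by
    refine Subgroup.eq_bot_of_card_eq _ ?_
    rw [H2.card_center_sp (by norm_num), Nat.card_eq_fintype_card, F4.card_eq]
    rfl
  have h := H82.Sp.hasCyclicSchurMultiplier_psp (F := F4) (m := 2) (q := 4) F4.card_eq le_rfl
    (fun _ => by norm_num) (by omega)
  have e2 : Cfsg.PSp 2 F4 ≃* Matrix.symplecticGroup (Fin 2) F4 :=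
    (QuotientGroup.quotientMulEquivOfEq hc).trans QuotientGroup.quotientBot
  exact H82.HasSchurMultiplier.of_mulEquiv h (e2.trans e.symm)

theorem perfect_sub2 : ⁅HeSp.sub2, HeSp.sub2⁆ = HeSp.sub2 := by
  obtain ⟨e⟩ := HeSp.nonempty_equiv
  have h : commutator HeSp.sub2 = ⊤ := by
    have h1 := congrArg (Subgroup.map e.symm.toMonoidHom) commutator_sp
    rw [commutator_def, Subgroup.map_commutator,
      Subgroup.map_top_of_surjective _ e.symm.surjective] at h1
    rwa [commutator_def]
  have h2 := congrArg (Subgroup.map HeSp.sub2.subtype) h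
  rwa [commutator_def, Subgroup.map_commutator, ← MonoidHom.range_eq_map,
    Subgroup.range_subtype] at h2

section split

variable {E : Type} [Group E] (σ : E →* He)

/-- The perfect subgroup over the symplectic subgroup. -/
noncomputable abbrev core : Subgroup E := ⁅HeSp.sub2.comap σ, HeSp.sub2.comap σ⁆

variable {σ}

theorem map_core (hσ : Function.Surjective σ) : (core σ).map σ = HeSp.sub2 := by
  rw [core, Subgroup.map_commutator, Subgroup.map_comap_eq_self_of_surjective hσ, perfect_sub2]

theorem le_core_sup_ker (hσ : Function.Surjective σ) {x : E} (hx : σ x ∈ HeSp.sub2) :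
    ∃ z ∈ σ.ker, ∃ y ∈ core σ, x = z * y := by
  rw [← map_core hσ] at hx
  obtain ⟨y, hy, he⟩ := hx
  exact ⟨x * y⁻¹, by simp [MonoidHom.mem_ker, he], y, hy, by group⟩

theorem core_perfect (hσ : Function.Surjective σ) (hc : σ.ker ≤ Subgroup.center E) :
    core σ ≤ ⁅core σ, core σ⁆ := by
  rw [core, Subgroup.commutator_le]
  intro a ha b hb
  obtain ⟨z, hz, y, hy, rfl⟩ := le_core_sup_ker hσ ha
  obtain ⟨z', hz', y', hy', rfl⟩ := le_core_sup_ker hσ hb
  have e : ⁅z * y, z' * y'⁆ = ⁅y, y'⁆ := by
    have h1 := fun e => (Subgroup.mem_center_iff.mp (hc hz)) e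
    have h2 := fun e => (Subgroup.mem_center_iff.mp (hc hz')) e
    simp only [commutatorElement_def, mul_inv_rev]
    calc z * y * (z' * y') * (y⁻¹ * z⁻¹) * (y'⁻¹ * z'⁻¹)
        = z * y * (z' * y') * (z⁻¹ * y⁻¹) * (z'⁻¹ * y'⁻¹) := by
          rw [show y⁻¹ * z⁻¹ = z⁻¹ * y⁻¹ by rw [← mul_inv_rev, ← mul_inv_rev, h1],
            show y'⁻¹ * z'⁻¹ = z'⁻¹ * y'⁻¹ by rw [← mul_inv_rev, ← mul_inv_rev, h2]]
      _ = z * (y * z') * y' * (z⁻¹ * y⁻¹) * (z'⁻¹ * y'⁻¹) := by group
      _ = z' * (z * (y * y')) * z⁻¹ * (y⁻¹ * z'⁻¹) * y'⁻¹ := by rw [h2 y, ← mul_assoc z z' y, h2 z]; group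
      _ = z' * ((y * y') * z) * z⁻¹ * (z'⁻¹ * y⁻¹) * y'⁻¹ := by
          rw [← h1 (y * y'), show y⁻¹ * z'⁻¹ = z'⁻¹ * y⁻¹ by rw [← mul_inv_rev, ← mul_inv_rev, h2]]
      _ = z' * (y * y') * z'⁻¹ * y⁻¹ * y'⁻¹ := by group
      _ = y * y' * y⁻¹ * y'⁻¹ := by rw [← h2 (y * y')]; group
  rw [e]
  exact Subgroup.commutator_mem_commutator hy hy'

theorem core_inf_ker [Finite E] (hσ : Cfsg.IsStemExtension σ) {z : E} (hz : z ∈ σ.ker)
    (hzc : z ∈ core σ) : z = 1 := by
  let τ : core σ →* HeSp.sub2 := (σ.comp (core σ).subtype).codRestrict HeSp.sub2 fun y => by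
    rw [← map_core hσ.1]; exact Subgroup.mem_map_of_mem σ y.2
  have hst : Cfsg.IsStemExtension τ := by
    refine ⟨fun n => ?_, fun y hy => ?_, fun y _ => ?_⟩
    · obtain ⟨y, hy, he⟩ : (n : He) ∈ (core σ).map σ := by rw [map_core hσ.1]; exact n.2
      exact ⟨⟨y, hy⟩, Subtype.ext he⟩
    · have : (y : E) ∈ σ.ker := congrArg Subtype.val hy
      exact Subgroup.mem_center_iff.mpr fun w =>
        Subtype.ext (Subgroup.mem_center_iff.mp (hσ.2.1 this) w)
    · have h : (y : E) ∈ (commutator (core σ)).map (core σ).subtype := by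
        rw [commutator_def, Subgroup.map_commutator, ← MonoidHom.range_eq_map,
          Subgroup.range_subtype]
        exact core_perfect hσ.1 hσ.2.1 y.2
      obtain ⟨w, hw, he⟩ := h
      rwa [Subtype.ext he] at hw
  have h := (H82.hasCyclicSchurMultiplier_one_iff.mp mult_sub2) _ τ hst
  exact congrArg Subtype.val (@h ⟨z, hzc⟩ 1 (by rw [map_one]; exact Subtype.ext hz))

end split

/-- number of a generator in the certificate -/
abbrev idx (x : He.Gen) : Nat := HeH.gens.idxOf x

theorem pair_ok : ∀ x ∈ coxNodes He.edges, ∀ y ∈ coxNodes He.edges,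
    (x = y ∧ [idx x, idx x] ∈ words.take 32) ∨ pairWord HeH.gens He.edges x y ∈ words.take 32 ∨
      (pairWord HeH.gens He.edges x y).reverse ∈ words.take 32 := by decide +kernel

theorem extra_ok : ∀ w ∈ HeH.extraWords, w ∈ words.take 32 := by decide +kernel

theorem sq_ok : ∀ g < 7, [g, g] ∈ words.take 32 := by decide +kernel

theorem free_ok : ∀ q ∈ freeMem, cert.checkStep q.1 = true →
    (allFixed HeH.base []).all (fun i => Nat.beq (HeH.data.run (List.replicate 1
      (q.2.1 ++ (HeSp.flat q.2.2).reverse)).flatten i) i) = true ∧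
    q.2.1.all (fun g => Nat.ble (g + 1) 7) = true ∧
    q.2.2.all (fun g => ([0, 1, 2] : List Nat).contains g) = true := by decide +kernel

/-- letters of the tree path to a node -/
def path : Nat → Nat → List Nat
  | 0, _ => []
  | f + 1, b => if (cert.defs.get (0, 0) b).1 < b then
      path f (cert.defs.get (0, 0) b).1 ++ [(cert.defs.get (0, 0) b).2] else []

theorem node_path {E X : Type*} [Group E] [MulAction E X] (l : Nat → E) (x₀ : X) :
    ∀ f b, b ≤ f → cert.node l x₀ b = ev l (path f b) • x₀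
  | 0, b, hb => by rw [Nat.le_zero.mp hb, LabelData.node_zero]; simp [path, ev]
  | f + 1, b, hb => by
    rw [LabelData.node, path]
    split
    · rename_i h
      rw [node_path l x₀ f _ (by omega), ev_append, ev, ev, one_mul, mul_smul]
    · simp_all [ev]

theorem free_edge : ∀ t, t < cert.nsteps → (cert.step t).kind = 1 →
    ∃ q ∈ freeMem, q.1 = t ∧ (cert.step t).r = 35 + freeMem.idxOf q ∧
      q.2.1 = path numNodes (cert.step t).a ++ [(cert.step t).g] ++
        (path numNodes (cert.step t).b).reverse := by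
  have h : allFrom (fun t => if (cert.step t).kind = 1 then freeMem.any (fun q =>
      q.1 == t && (cert.step t).r == 35 + freeMem.idxOf q &&
        q.2.1 == path numNodes (cert.step t).a ++ [(cert.step t).g] ++
          (path numNodes (cert.step t).b).reverse) else true) cert.nsteps 0 = true := by
    decide +kernel
  intro t ht hk
  have h2 := allFrom_spec h t (Nat.zero_le t) (by omega)
  rw [if_pos hk, List.any_eq_true] at h2
  obtain ⟨q, hq, h3⟩ := h2
  simp only [Bool.and_eq_true, beq_iff_eq] at h3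
  exact ⟨q, hq, h3.1.1, h3.1.2, h3.2⟩

theorem node_lt : ∀ t, t < cert.nsteps → (cert.step t).a ≤ numNodes ∧ (cert.step t).b ≤ numNodes := by
  have h : allFrom (fun t => Nat.ble (cert.step t).a numNodes && Nat.ble (cert.step t).b numNodes)
      cert.nsteps 0 = true := by decide +kernel
  intro t ht
  have h2 := allFrom_spec h t (Nat.zero_le t) (by omega)
  rw [Bool.and_eq_true] at h2
  exact ⟨Nat.le_of_ble_eq_true h2.1, Nat.le_of_ble_eq_true h2.2⟩

theorem sub_words : ∀ k < 3, words.getD (32 + k) [] = HeSp.gword k := by decide +kernel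

open Classical in
theorem ker_eq_bot {E : Type} [Group E] [Finite E] {σ : E →* He} (hσ : Cfsg.IsStemExtension σ) :
    Function.Injective σ := by
  have hsq := HeH.theModel.sq
  choose lift hlift using hσ.1
  set l : Nat → E := fun g => if g < 7 then lift (HeH.val g) else 1 with hl
  have hlσ : ∀ g, σ (l g) = HeH.val g := by
    intro g
    by_cases hg : g < 7
    · simp [hl, hg, hlift]
    · rw [show HeH.val g = 1 from HeH.theModel.outside g (by
        have : HeH.data.ng = 7 := rfl
        omega)]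
      simp [hl, hg]
  have hev : ∀ w, σ (ev l w) = ev HeH.val w := by
    intro w
    induction w with
    | nil => simp [ev]
    | cons g w ih => simp [ev, ih, hlσ]
  letI : CommGroup σ.ker :=
    { (inferInstance : Group σ.ker) with
      mul_comm := fun a b => Subtype.ext (Subgroup.mem_center_iff.mp (hσ.2.1 b.2) a) }
  let ι : σ.ker →* E := σ.ker.subtype
  have hc : ∀ (a : σ.ker) (e : E), ι a * e = e * ι a :=
    fun a e => (Subgroup.mem_center_iff.mp (hσ.2.1 a.2) e).symm
  let x₀ : E ⧸ core σ := ((1 : E) : E ⧸ core σ)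
  have hnode : ∀ b, ∃ e : E, cert.node l x₀ b = (e : E ⧸ core σ) := fun b => Quotient.exists_rep _ |>.imp fun e h => h.symm
  have hsmul : ∀ (e f : E), e • (f : E ⧸ core σ) = ((e * f : E) : E ⧸ core σ) := fun _ _ => rfl
  have hfix : ∀ (a b : σ.ker) (i : Nat), ι a • cert.node l x₀ i = ι b • cert.node l x₀ i → a = b := by
    intro a b i h
    obtain ⟨e, he⟩ := hnode i
    rw [he, hsmul, hsmul, QuotientGroup.eq] at h
    have e1 : (ι a * e)⁻¹ * (ι b * e) = ι (a⁻¹ * b) := by
      rw [mul_inv_rev, map_mul, map_inv, hc b e]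
      calc e⁻¹ * (ι a)⁻¹ * (e * ι b) = e⁻¹ * ((ι a)⁻¹ * e) * ι b := by group
        _ = e⁻¹ * (e * (ι a)⁻¹) * ι b := by rw [← map_inv, hc]
        _ = _ := by group
    rw [e1] at h
    exact inv_mul_eq_one.mp (Subtype.ext (core_inf_ker hσ (a⁻¹ * b).2 h))
  have hmem : ∀ x : E, σ x ∈ HeSp.sub2 → ∃ a : σ.ker, x • x₀ = ι a • x₀ := by
    intro x hx
    obtain ⟨z, hz, y, hy, rfl⟩ := le_core_sup_ker hσ.1 hx
    refine ⟨⟨z, hz⟩, ?_⟩
    rw [hsmul, hsmul, mul_one, QuotientGroup.eq, mul_one]
    simpa [ι, mul_assoc] using inv_mem hy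
  -- the constants
  have hfr : ∀ q ∈ freeMem, cert.checkStep q.1 = true → ∃ a : σ.ker, ev l q.2.1 • x₀ = ι a • x₀ := by
    intro q hq hck
    obtain ⟨h1, h2, h3⟩ := free_ok q hq hck
    refine hmem _ ?_
    rw [hev]
    have := HeSp.el_eq (u := q.2.1) (v := HeSp.flat q.2.2)
      (fun g hg => Nat.le_of_ble_eq_true (List.all_eq_true.mp h2 g hg)) (HeSp.flat_lt _) h1
    rw [HeSp.el] at this
    rw [this, HeSp.el_flat]
    exact ev_mem_letterSub HeSp.gel [0, 1, 2] _ fun g hg =>
      List.contains_iff_mem.mp (List.all_eq_true.mp h3 g hg)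
  let v : Nat → σ.ker := fun k =>
    if h : ∃ a : σ.ker, k < 32 ∧ ι a = ev l (words.getD k []) then h.choose
    else if h : ∃ a : σ.ker, 32 ≤ k ∧ k < 35 ∧ ev l (words.getD k []) • x₀ = ι a • x₀ then h.choose
    else if h : ∃ a : σ.ker, ∃ q ∈ freeMem, k = 35 + freeMem.idxOf q ∧
        l (cert.step q.1).g • cert.node l x₀ (cert.step q.1).a =
          ι a • cert.node l x₀ (cert.step q.1).b then
      h.choose
    else 1
  have hrelHe : ∀ k < 32, ev HeH.val (words.getD k []) = 1 := by
    have h : ∀ k < 32, (HeH.data.words.take HeH.data.nbase).contains (words.getD k []) = true ∨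
        (HeH.data.words.take HeH.data.nbase).contains (words.getD k []).reverse = true := by
      decide +kernel
    intro k hk
    have hb := HeOrder.wordGroupHe.base_one
    rcases h k hk with h | h
    · exact hb _ (List.contains_iff_mem.mp h)
    · have := hb _ (List.contains_iff_mem.mp h)
      rwa [ev_reverse _ hsq, inv_eq_one] at this
  have hv1 : ∀ k < 32, ι (v k) = ev l (words.getD k []) := by
    intro k hk
    have h : ∃ a : σ.ker, k < 32 ∧ ι a = ev l (words.getD k []) :=
      ⟨⟨_, by rw [MonoidHom.mem_ker, hev, hrelHe k hk]⟩, hk, rfl⟩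
    simp only [v, dif_pos h]
    exact h.choose_spec.2
  have hword : ∀ k i, cert.startOK k i = true →
      ev l (cert.word k) • cert.node l x₀ i = ι (v k) • cert.node l x₀ i := by
    intro k i h
    simp only [LabelData.startOK, Bool.and_eq_true, Bool.or_eq_true, decide_eq_true_eq,
      beq_iff_eq] at h
    obtain ⟨hk, hor⟩ := h
    have hk35 : k < 35 := hk
    by_cases h32 : k < 32
    · rw [hv1 k h32]; rfl
    · obtain rfl : i = 0 := hor.resolve_left h32
      rw [LabelData.node_zero]
      have h1 : ¬ ∃ a : σ.ker, k < 32 ∧ ι a = ev l (words.getD k []) := fun ⟨_, h, _⟩ => h32 h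
      have h2 : ∃ a : σ.ker, 32 ≤ k ∧ k < 35 ∧ ev l (words.getD k []) • x₀ = ι a • x₀ := by
        obtain ⟨a, ha⟩ := hmem (ev l (words.getD k [])) (by
          rw [hev]
          have := sub_words (k - 32) (by omega)
          rw [show 32 + (k - 32) = k by omega] at this
          rw [this]
          exact HeSp.gel_mem _ (by
            simp only [List.mem_cons, List.not_mem_nil, or_false]; omega))
        exact ⟨a, by omega, hk35, ha⟩
      simp only [v, dif_neg h1, dif_pos h2]
      exact h2.choose_spec.2.2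
  have hfree : ∀ t, t < cert.nsteps → (cert.step t).kind = 1 →
      l (cert.step t).g • cert.node l x₀ (cert.step t).a =
        ι (v (cert.step t).r) • cert.node l x₀ (cert.step t).b := by
    intro t ht hk
    obtain ⟨q, hq, rfl, hr, hp⟩ := free_edge t ht hk
    have h1 : ¬ ∃ a : σ.ker, (cert.step q.1).r < 32 ∧ ι a = ev l (words.getD (cert.step q.1).r []) :=
      fun ⟨_, h, _⟩ => by omega
    have h2 : ¬ ∃ a : σ.ker, 32 ≤ (cert.step q.1).r ∧ (cert.step q.1).r < 35 ∧
        ev l (words.getD (cert.step q.1).r []) • x₀ = ι a • x₀ := fun ⟨_, _, h, _⟩ => by omega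
    have h3 : ∃ a : σ.ker, ∃ q' ∈ freeMem, (cert.step q.1).r = 35 + freeMem.idxOf q' ∧
        l (cert.step q'.1).g • cert.node l x₀ (cert.step q'.1).a =
          ι a • cert.node l x₀ (cert.step q'.1).b := by
      obtain ⟨a, ha⟩ := hfr q hq (steps_ok _ ht)
      obtain ⟨hla, hlb⟩ := node_lt _ ht
      set b' := ev l (path numNodes (cert.step q.1).b) with hb'
      obtain ⟨d, hd⟩ : ∃ d : σ.ker, ev l (path numNodes (cert.step q.1).b).reverse * b' = ι d := by
        refine ⟨⟨_, ?_⟩, rfl⟩
        show σ (ev l (path numNodes (cert.step q.1).b).reverse * b') = 1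
        rw [map_mul, hb', hev, hev, ev_reverse _ hsq, inv_mul_cancel]
      refine ⟨a * d⁻¹, q, hq, hr, ?_⟩
      rw [node_path l x₀ _ _ hla, node_path l x₀ _ _ hlb]
      rw [hp, ev_append, ev_append, ev, ev, one_mul, mul_smul, mul_smul,
        eq_mul_inv_of_mul_eq hd, mul_smul] at ha
      refine smul_left_cancel b'⁻¹ (smul_left_cancel (ι d) (ha.trans ?_))
      rw [← mul_smul, ← mul_smul, ← mul_smul]
      congr 1
      calc ι a = ι (d * (a * d⁻¹)) := by rw [mul_comm a, mul_inv_cancel_left]
        _ = ι d * (b'⁻¹ * (b' * ι (a * d⁻¹))) := by rw [map_mul, inv_mul_cancel_left]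
        _ = _ := by rw [← hc (a * d⁻¹) b', hb']; group
    simp only [v, dif_neg h1, dif_neg h2, dif_pos h3]
    obtain ⟨q', hq', hr', ha⟩ := h3.choose_spec
    obtain rfl : q' = q := (List.idxOf_inj hq').mp (by omega)
    exact ha
  obtain ⟨t, ht⟩ := cert.exists_shift hc hword hfree steps_ok hfix combos_ok
  let l' : Nat → E := fun g => ι (t g)⁻¹ * l g
  have hev' : ∀ w, ev l' w = ι ((w.map t).prod)⁻¹ * ev l w := by
    intro w
    induction w with
    | nil => simp [ev]
    | cons g w ih =>
      rw [ev, ih, ev, List.map_cons, List.prod_cons, mul_inv, map_mul]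
      calc ι ((w.map t).prod)⁻¹ * ev l w * (ι (t g)⁻¹ * l g)
          = ι ((w.map t).prod)⁻¹ * (ev l w * ι (t g)⁻¹) * l g := by group
        _ = ι ((w.map t).prod)⁻¹ * (ι (t g)⁻¹ * ev l w) * l g := by
          rw [hc (t g)⁻¹ (ev l w)]
        _ = ι ((w.map t).prod)⁻¹ * ι (t g)⁻¹ * (ev l w * l g) := by group
        _ = _ := by rw [← map_mul, ← map_mul, mul_comm]
  have hone : ∀ w ∈ words.take 32, ev l' w = 1 := by
    intro w hw
    obtain ⟨k, hk, rfl⟩ := List.getElem_of_mem hw
    have hk' : k < 32 := by rw [List.length_take] at hk; omega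
    rw [List.getElem_take, ← List.getD_eq_getElem _ [] (by rw [List.length_take] at hk; omega), hev',
      ← hv1 k hk', ← map_mul]
    have := ht k hk'
    rw [show words.getD k [] = cert.word k from rfl, ← this, inv_mul_cancel, map_one]
  let f : He.Gen → E := fun x => l' (idx x)
  have hf : ∀ x, f x * f x = 1 := by
    intro x
    have := hone _ (sq_ok (idx x) (by cases x <;> decide))
    simpa [ev, f] using this
  have hnum : ∀ w, (∀ g ∈ w, g < 7) → ev (numGen HeH.gens f) w = ev l' w := by
    intro w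
    induction w with
    | nil => simp [ev]
    | cons g w ih =>
      intro hw
      simp only [List.forall_mem_cons] at hw
      rw [ev, ev, ih hw.2]
      congr 1
      have hg : g < HeH.gens.length := hw.1
      unfold numGen
      rw [List.getElem?_eq_getElem hg]
      show l' (idx _) = l' g
      rw [idx, List.Nodup.idxOf_getElem HeH.gens_nodup]
  have hlt : ∀ w ∈ words.take 32, ∀ g ∈ w, g < 7 := by decide +kernel
  have hnum1 : ∀ w, w ∈ words.take 32 → ev (numGen HeH.gens f) w = 1 :=
    fun w hw => (hnum w (hlt w hw)).trans (hone w hw)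
  have hrel : ∀ r ∈ coxRelators He.edges ∪ {r | r ∈ He.extra}, FreeGroup.lift f r = 1 := by
    intro r hr
    rcases hr with ⟨x, hx, y, hy, rfl⟩ | hr
    · rw [map_pow, map_mul, FreeGroup.lift_apply_of, FreeGroup.lift_apply_of,
        ← ev_pairWord (edges := He.edges) f (HeH.mem_gens x).1 (HeH.mem_gens y).1]
      rcases pair_ok x hx y hy with ⟨rfl, -⟩ | h | h
      · rw [ev_pairWord (edges := He.edges) f (HeH.mem_gens x).1 (HeH.mem_gens x).1, coxLabel,
          if_pos rfl, pow_one, hf]
      · exact hnum1 _ h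
      · have := hnum1 _ h
        rwa [ev_reverse _ (numGen_sq f hf), inv_eq_one] at this
    · have key : ∀ (rs : List (FreeGroup He.Gen)) (ws : List (List Nat)), List.Forall₂ (fun r w =>
          (HeH.data.words.take HeH.data.nbase).contains w = true ∧ ∀ {G : Type} [Group G]
            (f : He.Gen → G), (∀ x, f x * f x = 1) →
              FreeGroup.lift f r = ev (numGen HeH.gens f) w) rs ws →
          (∀ w ∈ ws, w ∈ words.take 32) → r ∈ rs → FreeGroup.lift f r = 1 := by
        intro rs ws hall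
        induction hall with
        | nil => intro _ h; simp at h
        | @cons r' w rs ws hrw _ ih =>
          intro hws h
          rcases List.mem_cons.mp h with rfl | h
          · rw [hrw.2 f hf]; exact hnum1 _ (hws w (List.mem_cons_self ..))
          · exact ih (fun w hw => hws w (List.mem_cons_of_mem _ hw)) h
      exact key _ _ HeH.presCheck.extra_ok extra_ok hr
  let ψ : He →* E := PresentedGroup.toGroup hrel
  have hσψ : σ.comp ψ = MonoidHom.id He := PresentedGroup.ext fun x => by
    simp only [MonoidHom.comp_apply, MonoidHom.id_apply, ψ, PresentedGroup.toGroup.of, f, l',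
      map_mul, hlσ]
    rw [show σ (ι (t (idx x))⁻¹) = 1 from (t (idx x))⁻¹.2, one_mul]
    cases x <;> rfl
  have hψσ : ∀ y : E, ∃ z ∈ σ.ker, y = z * ψ (σ y) := fun y => ⟨y * (ψ (σ y))⁻¹, by
    rw [MonoidHom.mem_ker, map_mul, map_inv, ← MonoidHom.comp_apply σ ψ, hσψ]
    simp, by group⟩
  have hall : commutator E ≤ ψ.range := by
    rw [commutator_def, Subgroup.commutator_le]
    intro a _ b _
    obtain ⟨z, hz, ha⟩ := hψσ a
    obtain ⟨z', hz', hb⟩ := hψσ b
    have h1 := fun e => Subgroup.mem_center_iff.mp (hσ.2.1 hz) e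
    have h2 := fun e => Subgroup.mem_center_iff.mp (hσ.2.1 hz') e
    refine ⟨⁅σ a, σ b⁆, ?_⟩
    rw [map_commutatorElement]
    conv_rhs => rw [ha, hb]
    have e1 : ∀ (z a b : E), (∀ e, e * z = z * e) → ⁅z * a, b⁆ = ⁅a, b⁆ := by
      intro z a b h
      simp only [commutatorElement_def, mul_inv_rev]
      calc z * a * b * (a⁻¹ * z⁻¹) * b⁻¹ = z * (a * b * a⁻¹) * z⁻¹ * b⁻¹ := by group
        _ = a * b * a⁻¹ * z * z⁻¹ * b⁻¹ := by rw [← h (a * b * a⁻¹)]
        _ = _ := by group
    rw [e1 _ _ _ h1, ← commutatorElement_inv (z' * _) _, e1 _ _ _ h2, commutatorElement_inv]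
  refine (injective_iff_map_eq_one σ).mpr fun z hz => ?_
  obtain ⟨g, rfl⟩ := hall (hσ.2.2 hz)
  rw [← MonoidHom.comp_apply σ ψ, hσψ] at hz
  rw [show g = 1 from hz, map_one]

theorem mult_He : Cfsg.HasCyclicSchurMultiplier Cfsg.Spor.He 1 := by
  haveI : Finite He := HeOrder.finite_card_le.1
  exact H82.hasCyclicSchurMultiplier_one_iff.mpr fun E _ _ σ hσ => ker_eq_bot hσ

end Cfsg.Agent.H10.HeMult
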